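import Cfsg.Agent.H92.RtRR
import Mathlib.Tactic.Group
import Mathlib.Tactic.Abel
import Mathlib.GroupTheory.Coset.Card
import Mathlib.GroupTheory.SpecificGroups.Cyclic

/-!
# S2755, piece R: the rotation data
-/

set_option autoImplicit false
set_option linter.unusedSectionVars false

namespace Cfsg.Agent.H96.Rt

open Cfsg.Agent.H92.Rt

variable {K : Type*} [Group K] [Finite K] {q m : ℕ} {U A : Subgroup K} {k s r : K}

theorem A_pow (D : KD q m U A k s r) {a : K} (ha : a ∈ A) : a ^ m = 1 := by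
  have h := pow_card_eq_one' (G := A) (x := ⟨a, ha⟩)
  rw [D.cardA] at h
  simpa using congrArg Subtype.val h

theorem A_comm (D : KD q m U A k s r) {a b : K} (ha : a ∈ A) (hb : b ∈ A) : a * b = b * a := by
  have hc := D.Acyc
  letI : CommGroup A := IsCyclic.commGroup
  have h := mul_comm (⟨a, ha⟩ : A) ⟨b, hb⟩
  simpa using congrArg Subtype.val h

theorem A_two (D : KD q m U A k s r) {a : K} (ha : a ∈ A) (h : a * a = 1) : a = 1 := by
  obtain ⟨n, hn⟩ := D.modd
  have h1 := A_pow D ha
  rw [hn, pow_succ, pow_mul, pow_two, h, one_pow, one_mul] at h1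
  exact h1

theorem s_notA (D : KD q m U A k s r) : s ∉ A := fun h => D.s1 (A_two D h D.s2)

theorem k_notA (D : KD q m U A k s r) : k ∉ A := fun h => D.k1 (A_two D h D.k2)

theorem ks_notA (D : KD q m U A k s r) : k * s ∉ A := fun h => by
  have h1 : k * s = 1 := A_two D h (by
    calc k * s * (k * s) = k * (s * k) * s := by group
      _ = k * (k * s) * s := by rw [D.sck]
      _ = (k * k) * (s * s) := by group
      _ = 1 := by rw [D.k2, D.s2, one_mul])
  apply D.sk
  calc s = k * (k * s) := by rw [← mul_assoc, D.k2, one_mul]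
    _ = k := by rw [h1, mul_one]

/-- the four cosets of `A` in `C(k)` -/
def wd (k s : K) : Fin 4 → K := ![1, k, s, k * s]

theorem wd_cent (D : KD q m U A k s r) (i : Fin 4) : wd k s i ∈ Subgroup.centralizer ({k} : Set K) := by
  rw [Subgroup.mem_centralizer_singleton_iff]
  fin_cases i
  · simp [wd]
  · simp [wd]
  · simpa [wd] using D.sck
  · show k * s * k = k * (k * s)
    rw [mul_assoc, D.sck]

theorem wd_inj (D : KD q m U A k s r) (i j : Fin 4) (h : wd k s i * (wd k s j)⁻¹ ∈ A) : i = j := by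
  have ki : k⁻¹ = k := inv_eq_of_mul_eq_one_left D.k2
  have si : s⁻¹ = s := inv_eq_of_mul_eq_one_left D.s2
  have hk := k_notA D
  have hs := s_notA D
  have hks := ks_notA D
  have e1 : k * k⁻¹ = 1 := by group
  have hsk : s * k ∉ A := by rw [D.sck]; exact hks
  have e2 : s * k = k * s := D.sck
  fin_cases i <;> fin_cases j <;> simp [wd, ki, si] at h ⊢
  · exact hk h
  · exact hs h
  · exact hsk h
  · exact hk h
  · exact hks h
  · -- k * (s * k) = s
    have : k * (s * k) = s := by rw [e2, ← mul_assoc, D.k2, one_mul]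
    exact hs (this ▸ h)
  · exact hs h
  · exact hsk h
  · have : s * (s * k) = k := by rw [← mul_assoc, D.s2, one_mul]
    exact hk (this ▸ h)
  · exact hks h
  · have : k * s * k = s := by rw [mul_assoc, e2, ← mul_assoc, D.k2, one_mul]
    exact hs (this ▸ h)
  · have : k * s * s = k := by rw [mul_assoc, D.s2, mul_one]
    exact hk (this ▸ h)

theorem cent_k (D : KD q m U A k s r) {y : K} (hy : y * k = k * y) :
    ∃ a ∈ A, y = a ∨ y = a * k ∨ y = a * s ∨ y = a * (k * s) := by
  classical
  haveI := Fintype.ofFinite K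
  haveI : Fintype A := Fintype.ofFinite _
  let f : A × Fin 4 → Subgroup.centralizer ({k} : Set K) := fun p =>
    ⟨(p.1 : K) * wd k s p.2, Subgroup.mul_mem _
      (Subgroup.mem_centralizer_singleton_iff.2 (D.Ak _ p.1.2)) (wd_cent D p.2)⟩
  have hf : Function.Injective f := by
    rintro ⟨⟨a, ha⟩, i⟩ ⟨⟨b, hb⟩, j⟩ h
    have h1 : a * wd k s i = b * wd k s j := congrArg Subtype.val h
    have h2 : wd k s i * (wd k s j)⁻¹ = a⁻¹ * b := by
      calc wd k s i * (wd k s j)⁻¹ = a⁻¹ * (a * wd k s i) * (wd k s j)⁻¹ := by group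
        _ = a⁻¹ * b := by rw [h1]; group
    have hij := wd_inj D i j (h2 ▸ A.mul_mem (A.inv_mem ha) hb)
    subst hij
    have : a = b := mul_right_cancel h1
    subst this
    rfl
  have hc : Nat.card (A × Fin 4) = Nat.card (Subgroup.centralizer ({k} : Set K)) := by
    rw [Nat.card_prod, D.cardA, D.cardCk, Nat.card_fin, mul_comm]
  have hbij := (Nat.bijective_iff_injective_and_card f).2 ⟨hf, hc⟩
  obtain ⟨⟨a, i⟩, hai⟩ := hbij.2 ⟨y, Subgroup.mem_centralizer_singleton_iff.2 hy⟩
  have h1 : (a : K) * wd k s i = y := congrArg Subtype.val hai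
  refine ⟨a, a.2, ?_⟩
  fin_cases i
  · left; simpa [wd] using h1.symm
  · right; left; simpa [wd] using h1.symm
  · right; right; left; simpa [wd] using h1.symm
  · right; right; right; simpa [wd] using h1.symm

theorem s_act (D : KD q m U A k s r) {a : K} (ha : a ∈ A) : s * a = a⁻¹ * s := by
  rw [← D.sA a ha]; group

theorem ks_act (D : KD q m U A k s r) {a : K} (ha : a ∈ A) : k * s * a = a⁻¹ * (k * s) := by
  rw [mul_assoc, s_act D ha, ← mul_assoc, ← D.Ak _ (A.inv_mem ha), mul_assoc]

theorem invol (D : KD q m U A k s r) {y : K} (hy : y * k = k * y) (h1 : y ≠ 1) (hk : y ≠ k) (h2 : y * y = 1) :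
    ∀ b ∈ A, y * b * y⁻¹ = b⁻¹ := by
  obtain ⟨a, ha, h | h | h | h⟩ := cent_k D hy
  · exact absurd (h.trans (A_two D ha (by rw [← h]; exact h2))) h1
  · exfalso
    apply hk
    have : a * a = 1 := by
      have e : y * y = a * a := by
        rw [h]
        calc a * k * (a * k) = a * (k * a) * k := by group
          _ = a * (a * k) * k := by rw [← D.Ak a ha]
          _ = a * a * (k * k) := by group
          _ = a * a := by rw [D.k2, mul_one]
      rw [← e]; exact h2
    rw [h, A_two D ha this, one_mul]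
  · intro b hb
    rw [h]
    calc a * s * b * (a * s)⁻¹ = a * (s * b) * s⁻¹ * a⁻¹ := by group
      _ = a * b⁻¹ * a⁻¹ := by rw [s_act D hb]; group
      _ = b⁻¹ * a * a⁻¹ := by rw [A_comm D ha (A.inv_mem hb)]
      _ = b⁻¹ := by group
  · intro b hb
    rw [h]
    calc a * (k * s) * b * (a * (k * s))⁻¹ = a * (k * s * b) * (k * s)⁻¹ * a⁻¹ := by group
      _ = a * b⁻¹ * a⁻¹ := by rw [ks_act D hb]; group
      _ = b⁻¹ * a * a⁻¹ := by rw [A_comm D ha (A.inv_mem hb)]
      _ = b⁻¹ := by group

theorem pow_m (D : KD q m U A k s r) {y : K} (hy : y * k = k * y) (h2 : y ^ m = 1) : y ∈ A := by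
  obtain ⟨n, hn⟩ := D.modd
  obtain ⟨a, ha, h | h | h | h⟩ := cent_k D hy
  · exact h ▸ ha
  · exfalso
    have hc : Commute a k := D.Ak a ha
    rw [h, hc.mul_pow, A_pow D ha, one_mul, hn, pow_succ, pow_mul, pow_two, D.k2, one_pow, one_mul] at h2
    exact D.k1 h2
  · exfalso
    have e : y * y = 1 := by
      rw [h]
      calc a * s * (a * s) = a * (s * a) * s := by group
        _ = s * s := by rw [s_act D ha]; group
        _ = 1 := D.s2
    rw [hn, pow_succ, pow_mul, pow_two, e, one_pow, one_mul] at h2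
    rw [h] at h2
    exact s_notA D (by
      have : s = a⁻¹ := by rw [← mul_one a⁻¹, ← h2]; group
      rw [this]; exact A.inv_mem ha)
  · exfalso
    have e : y * y = 1 := by
      rw [h]
      calc a * (k * s) * (a * (k * s)) = a * (k * s * a) * (k * s) := by group
        _ = (k * s) * (k * s) := by rw [ks_act D ha]; group
        _ = k * (s * k) * s := by group
        _ = (k * k) * (s * s) := by rw [D.sck]; group
        _ = 1 := by rw [D.k2, D.s2, one_mul]
    rw [hn, pow_succ, pow_mul, pow_two, e, one_pow, one_mul] at h2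
    rw [h] at h2
    exact ks_notA D (by
      have : k * s = a⁻¹ := by rw [← mul_one a⁻¹, ← h2]; group
      rw [this]; exact A.inv_mem ha)

/-- [R] -/
theorem rr_of_rd {G : Type*} [Group G] [Finite G] {t : G} {K : Subgroup G} {q m : ℕ} {U A : Subgroup K} {k s r : K}
    (D : RD t K q m U A k s r) : ∃ ρ u : G, RR t K q m U A k s r ρ u := by
  have kd := D.kd
  -- elements of `K` commute with `t`
  have tc : ∀ y : K, (y : G) * t = t * (y : G) := fun y => (D.cent y).2 ⟨y, Or.inl rfl⟩
  have ti : t⁻¹ = t := inv_eq_of_mul_eq_one_left D.t2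
  have hk1 : (k : G) ≠ 1 := fun h => kd.k1 (Subtype.ext h)
  have hk2 : (k : G) * k = 1 := congrArg Subtype.val kd.k2
  obtain ⟨g0, hg0⟩ := D.inv k hk1 hk2
  -- first correction
  have hs2 : (s : G) * s = 1 := congrArg Subtype.val kd.s2
  have hsk : (s : G) * k = k * s := congrArg Subtype.val kd.sck
  have hτ : g0 * (s : G) * g0⁻¹ * t = t * (g0 * (s : G) * g0⁻¹) := by
    rw [← hg0]
    calc g0 * (s : G) * g0⁻¹ * (g0 * (k : G) * g0⁻¹) = g0 * ((s : G) * k) * g0⁻¹ := by group
      _ = g0 * ((k : G) * s) * g0⁻¹ := by rw [hsk]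
      _ = _ := by group
  obtain ⟨y, hy⟩ := (D.cent _).1 hτ
  have hy2 : (y : G) * y = 1 := by
    have e : g0 * (s : G) * g0⁻¹ * (g0 * (s : G) * g0⁻¹) = 1 := by
      calc g0 * (s : G) * g0⁻¹ * (g0 * (s : G) * g0⁻¹) = g0 * ((s : G) * s) * g0⁻¹ := by group
        _ = 1 := by rw [hs2]; group
    rcases hy with h | h
    · rw [h] at e; exact e
    · rw [h] at e
      calc (y : G) * y = (t * t) * ((y : G) * y) := by rw [D.t2, one_mul]
        _ = t * (t * (y : G)) * y := by group
        _ = t * ((y : G) * t) * y := by rw [tc]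
        _ = t * (y : G) * (t * (y : G)) := by group
        _ = 1 := e
  have hy1 : y ≠ 1 := by
    intro h
    rw [h] at hy
    rcases hy with h | h
    · apply kd.s1
      apply Subtype.ext
      have : (s : G) = g0⁻¹ * (g0 * (s : G) * g0⁻¹) * g0 := by group
      rw [this, h]; simp
    · apply kd.sk
      apply Subtype.ext
      have : (s : G) = g0⁻¹ * (g0 * (s : G) * g0⁻¹) * g0 := by group
      rw [this, h, ← hg0]; simp; group
  obtain ⟨c, hc⟩ := kd.kconj y hy1 (Subtype.ext hy2)
  have hc' : (c : G) * y * (c : G)⁻¹ = k := congrArg Subtype.val hc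
  obtain ⟨g, hgdef⟩ : ∃ g : G, g = (c : G) * g0 := ⟨_, rfl⟩
  have hg : g * (k : G) * g⁻¹ = t := by
    calc g * (k : G) * g⁻¹ = (c : G) * (g0 * k * g0⁻¹) * (c : G)⁻¹ := by rw [hgdef]; group
      _ = t := by rw [hg0, tc]; group
  have hgs : g * (s : G) * g⁻¹ = k ∨ g * (s : G) * g⁻¹ = t * k := by
    have e : g * (s : G) * g⁻¹ = (c : G) * (g0 * s * g0⁻¹) * (c : G)⁻¹ := by rw [hgdef]; group
    rcases hy with h | h
    · left; rw [e, h, hc']
    · right; rw [e, h]
      calc (c : G) * (t * (y : G)) * (c : G)⁻¹ = ((c : G) * t) * (y : G) * (c : G)⁻¹ := by group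
        _ = t * ((c : G) * (y : G) * (c : G)⁻¹) := by rw [tc]; group
        _ = t * k := by rw [hc']
  have hrk : (r : G) * k * (r : G)⁻¹ = s := congrArg Subtype.val kd.rk
  have hrs : (r : G) * s * (r : G)⁻¹ = k * s := congrArg Subtype.val kd.rs
  have hr3 : (r : G) ^ 3 = 1 := congrArg Subtype.val kd.r3
  obtain ⟨ρ, hρ⟩ : ∃ ρ : G, ρ = g * r * g⁻¹ := ⟨_, rfl⟩
  obtain ⟨u, hu⟩ : ∃ u : G, u = g * t * g⁻¹ := ⟨_, rfl⟩
  have hρt : ρ * t * ρ⁻¹ = g * s * g⁻¹ := by
    rw [← hg, hρ, ← hrk]; group
  have hρs : ρ * (g * s * g⁻¹) * ρ⁻¹ = t * (g * s * g⁻¹) := by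
    calc ρ * (g * s * g⁻¹) * ρ⁻¹ = g * ((r : G) * s * (r : G)⁻¹) * g⁻¹ := by rw [hρ]; group
      _ = g * k * g⁻¹ * (g * s * g⁻¹) := by rw [hrs]; group
      _ = _ := by rw [hg]
  have hu2 : u * u = 1 := by
    calc u * u = g * (t * t) * g⁻¹ := by rw [hu]; group
      _ = 1 := by rw [D.t2]; group
  have hucom : ∀ y : K, u * (g * (y : G) * g⁻¹) = g * (y : G) * g⁻¹ * u := by
    intro y
    calc u * (g * (y : G) * g⁻¹) = g * (t * (y : G)) * g⁻¹ := by rw [hu]; group
      _ = g * ((y : G) * t) * g⁻¹ := by rw [tc]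
      _ = _ := by rw [hu]; group
  have hut : u * t = t * u := by rw [← hg]; exact hucom k
  have huk : u * (k : G) = k * u := by
    rcases hgs with h | h
    · rw [← h]; exact hucom s
    · have e : (k : G) = t * (g * (s : G) * g⁻¹) := by rw [h, ← mul_assoc, D.t2, one_mul]
      rw [e]
      calc u * (t * (g * (s : G) * g⁻¹)) = (u * t) * (g * (s : G) * g⁻¹) := by group
        _ = t * (u * (g * (s : G) * g⁻¹)) := by rw [hut]; group
        _ = t * (g * (s : G) * g⁻¹ * u) := by rw [hucom]
        _ = _ := by group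
  have key : ∀ z : K, u ≠ g * (z : G) * g⁻¹ := by
    intro z h
    apply D.tK
    have : t = (z : G) := by
      calc t = g⁻¹ * u * g := by rw [hu]; group
        _ = (z : G) := by rw [h]; group
    rw [this]; exact z.2
  have hne1 : u ≠ 1 := by
    intro h
    apply key 1
    rw [h]; simp
  have hnet : u ≠ t := fun h => key k (by rw [hg]; exact h)
  have hks : g * ((k * s : K) : G) * g⁻¹ = t * (g * (s : G) * g⁻¹) := by
    rw [← hg]; push_cast; group
  have hnek : u ≠ k ∧ u ≠ t * (k : G) := by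
    rcases hgs with h | h
    · exact ⟨fun e => key s (by rw [h]; exact e), fun e => key (k * s) (by rw [hks, h]; exact e)⟩
    · refine ⟨fun e => key (k * s) ?_, fun e => key s (by rw [h]; exact e)⟩
      rw [hks, h, ← mul_assoc, D.t2, one_mul]; exact e
  have huA : ∀ a ∈ A, u * (a : G) * u⁻¹ = (a : G)⁻¹ := by
    obtain ⟨w, hw⟩ := (D.cent u).1 hut
    have hwk : w * k = k * w := by
      apply Subtype.ext
      push_cast
      rcases hw with h | h
      · rw [← h]; exact huk
      · have e : (w : G) = t * u := by rw [h, ← mul_assoc, D.t2, one_mul]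
        rw [e]
        calc t * u * (k : G) = t * (u * (k : G)) := by group
          _ = (t * (k : G)) * u := by rw [huk]; group
          _ = (k : G) * (t * u) := by rw [← tc]; group
    have hw1 : w ≠ 1 := by
      intro e
      rw [e] at hw
      rcases hw with h | h
      · exact hne1 (by simpa using h)
      · exact hnet (by simpa using h)
    have hwk' : w ≠ k := by
      intro e
      rw [e] at hw
      rcases hw with h | h
      · exact hnek.1 h
      · exact hnek.2 h
    have hw2 : w * w = 1 := by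
      apply Subtype.ext
      push_cast
      rcases hw with h | h
      · rw [← h]; exact hu2
      · have e : (w : G) = t * u := by rw [h, ← mul_assoc, D.t2, one_mul]
        rw [e]
        calc t * u * (t * u) = t * (u * t) * u := by group
          _ = (t * t) * (u * u) := by rw [hut]; group
          _ = 1 := by rw [D.t2, hu2, one_mul]
    intro a ha
    have h0 := invol kd hwk hw1 hwk' hw2 a ha
    have h0' : (w : G) * a * (w : G)⁻¹ = (a : G)⁻¹ := by simpa using congrArg Subtype.val h0
    rcases hw with h | h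
    · rw [h]; exact h0'
    · rw [h]
      calc t * (w : G) * (a : G) * (t * (w : G))⁻¹ = t * ((w : G) * a * (w : G)⁻¹) * t⁻¹ := by group
        _ = t * ((a⁻¹ : K) : G) * t⁻¹ := by rw [h0']; rfl
        _ = ((a⁻¹ : K) : G) := by rw [← tc]; group
        _ = (a : G)⁻¹ := rfl
  have hρ3 : ρ ^ 3 = 1 := by
    rw [hρ, conj_pow, hr3]; group
  -- the four-group `⟨t, k⟩`
  have hρt' : ρ * t * ρ⁻¹ = k ∨ ρ * t * ρ⁻¹ = t * k := by rw [hρt]; exact hgs
  -- `ρ⁻¹ t ρ`, `ρ⁻¹ k ρ` lie in `⟨t, k⟩`
  have hρk : ρ * k * ρ⁻¹ = t ∨ ρ * k * ρ⁻¹ = t * k := by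
    rcases hgs with h | h
    · right
      rw [← h, hρs]
    · left
      have e : (k : G) = t * (g * (s : G) * g⁻¹) := by rw [h, ← mul_assoc, D.t2, one_mul]
      calc ρ * (k : G) * ρ⁻¹ = (ρ * t * ρ⁻¹) * (ρ * (g * (s : G) * g⁻¹) * ρ⁻¹) := by rw [e]; group
        _ = (g * (s : G) * g⁻¹) * (t * (g * (s : G) * g⁻¹)) := by rw [hρt, hρs]
        _ = (t * k) * (t * (t * k)) := by rw [h]
        _ = t * ((k : G) * t) * (t * k) := by group
        _ = t * (t * k) * (t * k) := by rw [tc]
        _ = (t * t) * ((k : G) * t) * k := by group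
        _ = (t * t) * (t * k) * k := by rw [tc]
        _ = (t * t) * t * ((k : G) * k) := by group
        _ = t := by rw [D.t2, hk2]; group
  refine ⟨ρ, u, ⟨D, hρ3, hρt', ?_, hut, huk, ?_, hne1, hu2, ⟨hnet, hnek.1, hnek.2⟩, huA, ?_⟩⟩
  · rw [hρt]; exact hρs
  · rw [hρ]; exact hucom r
  · intro a ha
    -- `ρ a ρ⁻¹` commutes with `t` and `k`
    have hat : (a : G) * t = t * a := tc a
    have hak : (a : G) * k = k * a := congrArg Subtype.val (kd.Ak a ha)
    have hatk : (a : G) * (t * k) = t * k * a := by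
      rw [← mul_assoc, hat, mul_assoc, hak, mul_assoc]
    have cj : ∀ v : G, (a : G) * v = v * a → (ρ * a * ρ⁻¹) * (ρ * v * ρ⁻¹) = (ρ * v * ρ⁻¹) * (ρ * a * ρ⁻¹) := by
      intro v hv
      calc (ρ * a * ρ⁻¹) * (ρ * v * ρ⁻¹) = ρ * ((a : G) * v) * ρ⁻¹ := by group
        _ = ρ * (v * (a : G)) * ρ⁻¹ := by rw [hv]
        _ = _ := by group
    have c1 := cj t hat
    have c2 := cj k hak
    have c3 := cj (t * k) hatk
    -- the three images are `t`, `k`, `t * k` in some order
    have h3 : ρ * (t * k) * ρ⁻¹ = (ρ * t * ρ⁻¹) * (ρ * k * ρ⁻¹) := by group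
    have hx : (ρ * a * ρ⁻¹) * t = t * (ρ * a * ρ⁻¹) ∧ (ρ * a * ρ⁻¹) * k = k * (ρ * a * ρ⁻¹) := by
      obtain ⟨x, hx⟩ : ∃ x : G, x = ρ * a * ρ⁻¹ := ⟨_, rfl⟩
      rw [← hx] at c1 c2 c3 ⊢
      rw [h3] at c3
      rcases hρt' with h | h <;> rcases hρk with h' | h'
      · rw [h] at c1; rw [h'] at c2; exact ⟨c2, c1⟩
      · rw [h] at c1; rw [h'] at c2
        refine ⟨?_, c1⟩
        have e : t = (t * k) * k := by rw [mul_assoc, hk2, mul_one]
        calc x * t = x * (t * k) * k := by rw [mul_assoc, ← e]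
          _ = t * k * (x * k) := by rw [c2, mul_assoc]
          _ = t * k * (k * x) := by rw [c1]
          _ = t * ((k : G) * k) * x := by group
          _ = t * x := by rw [hk2, mul_one]
      · rw [h] at c1; rw [h'] at c2
        refine ⟨c2, ?_⟩
        have e : (k : G) = t * (t * k) := by rw [← mul_assoc, D.t2, one_mul]
        calc x * (k : G) = x * t * (t * k) := by rw [mul_assoc, ← e]
          _ = t * (x * (t * k)) := by rw [c2, mul_assoc]
          _ = t * (t * k * x) := by rw [c1]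
          _ = (t * t) * (k : G) * x := by group
          _ = k * x := by rw [D.t2, one_mul]
      · exfalso
        rw [← h'] at h
        apply D.tK
        have : t = (k : G) := by
          calc t = ρ⁻¹ * (ρ * t * ρ⁻¹) * ρ := by group
            _ = (k : G) := by rw [h]; group
        rw [this]; exact k.2
    have hxm : (ρ * a * ρ⁻¹) ^ m = 1 := by
      have := congrArg Subtype.val (A_pow kd ha)
      rw [conj_pow]
      have e : (a : G) ^ m = 1 := by simpa using this
      rw [e]; group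
    obtain ⟨w, hw⟩ := (D.cent _).1 hx.1
    rcases hw with h | h
    · refine ⟨w, ?_, h⟩
      apply pow_m kd
      · apply Subtype.ext
        push_cast
        rw [← h]; exact hx.2
      · apply Subtype.ext
        push_cast
        rw [← h]; exact hxm
    · exfalso
      have hc : Commute t (w : G) := (tc w).symm
      rw [h, hc.mul_pow] at hxm
      obtain ⟨n, hn⟩ := kd.modd
      have e : t ^ m = t := by rw [hn, pow_succ, pow_mul, pow_two, D.t2, one_pow, one_mul]
      rw [e] at hxm
      apply D.tK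
      have : t = ((w : G) ^ m)⁻¹ := eq_inv_of_mul_eq_one_left hxm
      rw [this]
      exact K.inv_mem (K.pow_mem w.2 m)

end Cfsg.Agent.H96.Rt
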